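import Cfsg.Agent.Helper28.Y5D0.Data

set_option autoImplicit false

namespace Cfsg.Agent.Helper28.Y5D0

theorem fin_24 : Cfsg.Agent.Helper28.ptChunk (Cfsg.Agent.Helper28.finPt D 31671 lv T ftp ftc) 31671 1024 24 = true := by decide +kernel

theorem fin_25 : Cfsg.Agent.Helper28.ptChunk (Cfsg.Agent.Helper28.finPt D 31671 lv T ftp ftc) 31671 1024 25 = true := by decide +kernel

theorem fin_26 : Cfsg.Agent.Helper28.ptChunk (Cfsg.Agent.Helper28.finPt D 31671 lv T ftp ftc) 31671 1024 26 = true := by decide +kernel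

theorem fin_27 : Cfsg.Agent.Helper28.ptChunk (Cfsg.Agent.Helper28.finPt D 31671 lv T ftp ftc) 31671 1024 27 = true := by decide +kernel

theorem fin_28 : Cfsg.Agent.Helper28.ptChunk (Cfsg.Agent.Helper28.finPt D 31671 lv T ftp ftc) 31671 1024 28 = true := by decide +kernel

theorem fin_29 : Cfsg.Agent.Helper28.ptChunk (Cfsg.Agent.Helper28.finPt D 31671 lv T ftp ftc) 31671 1024 29 = true := by decide +kernel

theorem fin_30 : Cfsg.Agent.Helper28.ptChunk (Cfsg.Agent.Helper28.finPt D 31671 lv T ftp ftc) 31671 1024 30 = true := by decide +kernel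

end Cfsg.Agent.Helper28.Y5D0
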