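import Cfsg.Agent.Helper28.Y5D0.Data

set_option autoImplicit false

namespace Cfsg.Agent.Helper28.Y5D0

theorem rel_96 : Cfsg.Agent.Helper28.ptChunk (Cfsg.Agent.Helper28.relPt T relL) 31671 256 96 = true := by decide +kernel

theorem rel_97 : Cfsg.Agent.Helper28.ptChunk (Cfsg.Agent.Helper28.relPt T relL) 31671 256 97 = true := by decide +kernel

theorem rel_98 : Cfsg.Agent.Helper28.ptChunk (Cfsg.Agent.Helper28.relPt T relL) 31671 256 98 = true := by decide +kernel

theorem rel_99 : Cfsg.Agent.Helper28.ptChunk (Cfsg.Agent.Helper28.relPt T relL) 31671 256 99 = true := by decide +kernel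

theorem rel_100 : Cfsg.Agent.Helper28.ptChunk (Cfsg.Agent.Helper28.relPt T relL) 31671 256 100 = true := by decide +kernel

theorem rel_101 : Cfsg.Agent.Helper28.ptChunk (Cfsg.Agent.Helper28.relPt T relL) 31671 256 101 = true := by decide +kernel

theorem rel_102 : Cfsg.Agent.Helper28.ptChunk (Cfsg.Agent.Helper28.relPt T relL) 31671 256 102 = true := by decide +kernel

theorem rel_103 : Cfsg.Agent.Helper28.ptChunk (Cfsg.Agent.Helper28.relPt T relL) 31671 256 103 = true := by decide +kernel

end Cfsg.Agent.Helper28.Y5D0
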