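import Cfsg.Agent.Helper28.Y5D0.Data

set_option autoImplicit false

namespace Cfsg.Agent.Helper28.Y5D0

theorem rel_112 : Cfsg.Agent.Helper28.ptChunk (Cfsg.Agent.Helper28.relPt T relL) 31671 256 112 = true := by decide +kernel

theorem rel_113 : Cfsg.Agent.Helper28.ptChunk (Cfsg.Agent.Helper28.relPt T relL) 31671 256 113 = true := by decide +kernel

theorem rel_114 : Cfsg.Agent.Helper28.ptChunk (Cfsg.Agent.Helper28.relPt T relL) 31671 256 114 = true := by decide +kernel

theorem rel_115 : Cfsg.Agent.Helper28.ptChunk (Cfsg.Agent.Helper28.relPt T relL) 31671 256 115 = true := by decide +kernel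

theorem rel_116 : Cfsg.Agent.Helper28.ptChunk (Cfsg.Agent.Helper28.relPt T relL) 31671 256 116 = true := by decide +kernel

theorem rel_117 : Cfsg.Agent.Helper28.ptChunk (Cfsg.Agent.Helper28.relPt T relL) 31671 256 117 = true := by decide +kernel

theorem rel_118 : Cfsg.Agent.Helper28.ptChunk (Cfsg.Agent.Helper28.relPt T relL) 31671 256 118 = true := by decide +kernel

theorem rel_119 : Cfsg.Agent.Helper28.ptChunk (Cfsg.Agent.Helper28.relPt T relL) 31671 256 119 = true := by decide +kernel

end Cfsg.Agent.Helper28.Y5D0
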