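import Cfsg.Agent.Helper28.Y5D0.Data

set_option autoImplicit false

namespace Cfsg.Agent.Helper28.Y5D0

theorem rows_8 : Cfsg.Agent.Helper28.ptChunk (Cfsg.Agent.Helper28.rowChk D) 69070 512 8 = true := by decide +kernel

theorem rows_9 : Cfsg.Agent.Helper28.ptChunk (Cfsg.Agent.Helper28.rowChk D) 69070 512 9 = true := by decide +kernel

theorem rows_10 : Cfsg.Agent.Helper28.ptChunk (Cfsg.Agent.Helper28.rowChk D) 69070 512 10 = true := by decide +kernel

theorem rows_11 : Cfsg.Agent.Helper28.ptChunk (Cfsg.Agent.Helper28.rowChk D) 69070 512 11 = true := by decide +kernel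

theorem rows_12 : Cfsg.Agent.Helper28.ptChunk (Cfsg.Agent.Helper28.rowChk D) 69070 512 12 = true := by decide +kernel

theorem rows_13 : Cfsg.Agent.Helper28.ptChunk (Cfsg.Agent.Helper28.rowChk D) 69070 512 13 = true := by decide +kernel

theorem rows_14 : Cfsg.Agent.Helper28.ptChunk (Cfsg.Agent.Helper28.rowChk D) 69070 512 14 = true := by decide +kernel

theorem rows_15 : Cfsg.Agent.Helper28.ptChunk (Cfsg.Agent.Helper28.rowChk D) 69070 512 15 = true := by decide +kernel

end Cfsg.Agent.Helper28.Y5D0
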