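import Cfsg.Agent.Helper28.Y5D0.Data

set_option autoImplicit false

namespace Cfsg.Agent.Helper28.Y5D0

theorem rows_88 : Cfsg.Agent.Helper28.ptChunk (Cfsg.Agent.Helper28.rowChk D) 69070 512 88 = true := by decide +kernel

theorem rows_89 : Cfsg.Agent.Helper28.ptChunk (Cfsg.Agent.Helper28.rowChk D) 69070 512 89 = true := by decide +kernel

theorem rows_90 : Cfsg.Agent.Helper28.ptChunk (Cfsg.Agent.Helper28.rowChk D) 69070 512 90 = true := by decide +kernel

theorem rows_91 : Cfsg.Agent.Helper28.ptChunk (Cfsg.Agent.Helper28.rowChk D) 69070 512 91 = true := by decide +kernel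

theorem rows_92 : Cfsg.Agent.Helper28.ptChunk (Cfsg.Agent.Helper28.rowChk D) 69070 512 92 = true := by decide +kernel

theorem rows_93 : Cfsg.Agent.Helper28.ptChunk (Cfsg.Agent.Helper28.rowChk D) 69070 512 93 = true := by decide +kernel

theorem rows_94 : Cfsg.Agent.Helper28.ptChunk (Cfsg.Agent.Helper28.rowChk D) 69070 512 94 = true := by decide +kernel

theorem rows_95 : Cfsg.Agent.Helper28.ptChunk (Cfsg.Agent.Helper28.rowChk D) 69070 512 95 = true := by decide +kernel

end Cfsg.Agent.Helper28.Y5D0
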